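import Cfsg.Agent.Golay.MathieuSimple
import Cfsg.Agent.Golay.Triples

/-!
The stabiliser of a dodecad and three of its points: order 72, transitive off the dodecad.
-/

set_option autoImplicit false

namespace Cfsg.Agent.Golay

open Cfsg
open scoped Pointwise

/-- Three stabilisers in a subgroup as an intersection, together with a fourth. -/
def stabilizerInfEquiv₄ {G β γ : Type*} [Group G] [MulAction G β] [MulAction G γ]
    (H : Subgroup G) (b : β) (c e f : γ) :
    ↥(MulAction.stabilizer H b ⊓ MulAction.stabilizer H c ⊓ MulAction.stabilizer H e ⊓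
        MulAction.stabilizer H f) ≃*
      ↥(H ⊓ MulAction.stabilizer G b ⊓ MulAction.stabilizer G c ⊓ MulAction.stabilizer G e ⊓
        MulAction.stabilizer G f) where
  toFun x := ⟨((x : H) : G), ⟨⟨⟨(x : H).2, x.2.1.1.1⟩, x.2.1.1.2⟩, x.2.1.2⟩, x.2.2⟩
  invFun x := ⟨⟨x.1, x.2.1.1.1.1⟩, ⟨⟨x.2.1.1.1.2, x.2.1.1.2⟩, x.2.1.2⟩, x.2.2⟩
  left_inv _ := rfl
  right_inv _ := rfl
  map_mul' _ _ := rfl

theorem card_inf_dodecad_three {d : Finset GolayPt} (hd : d ∈ dodecads) {p q r : GolayPt}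
    (hp : p ∈ d) (hq : q ∈ d) (hr : r ∈ d) (hpq : p ≠ q) (hpr : p ≠ r) (hqr : q ≠ r) :
    Nat.card ↥(M24 ⊓ MulAction.stabilizer (Equiv.Perm GolayPt) d ⊓
      MulAction.stabilizer (Equiv.Perm GolayPt) p ⊓ MulAction.stabilizer (Equiv.Perm GolayPt) q ⊓
      MulAction.stabilizer (Equiv.Perm GolayPt) r) = 72 := by
  have hd12 := (mem_dodecads_iff.mp hd).2
  have hmem : ∀ {g : Equiv.Perm GolayPt}, g • d = d → ∀ {x}, x ∈ d → g x ∈ d :=
    fun h _ hx => (apply_mem_octad_iff h _).mpr hx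
  have e1 := card_eq_orbit_mul (M24 ⊓ MulAction.stabilizer (Equiv.Perm GolayPt) d ⊓
    MulAction.stabilizer (Equiv.Perm GolayPt) p) q (d.erase p) ?_ ?_
  have e2 := card_eq_orbit_mul (M24 ⊓ MulAction.stabilizer (Equiv.Perm GolayPt) d ⊓
    MulAction.stabilizer (Equiv.Perm GolayPt) p ⊓ MulAction.stabilizer (Equiv.Perm GolayPt) q)
    r ((d.erase p).erase q) ?_ ?_
  · rw [card_inf_stabilizer_dodecad_point hd hp, Finset.card_erase_of_mem hp, hd12] at e1
    rw [Finset.card_erase_of_mem (Finset.mem_erase.mpr ⟨hpq.symm, hq⟩),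
      Finset.card_erase_of_mem hp, hd12] at e2
    omega
  · intro g hg
    obtain ⟨⟨⟨-, hgd⟩, hgp⟩, hgq⟩ := hg
    rw [Finset.mem_erase, Finset.mem_erase]
    exact ⟨fun e => hqr (g.injective (hgq.trans e.symm)),
      fun e => hpr (g.injective (hgp.trans e.symm)), hmem hgd hr⟩
  · intro y hy
    rw [Finset.mem_erase, Finset.mem_erase] at hy
    obtain ⟨g, hg, hgd, he⟩ := exists_dodecad_move (k := 3) (by norm_num) hd
      (emb3 hpq hpr hqr) (emb3 hpq (Ne.symm hy.2.1) (Ne.symm hy.1))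
      (fun i => by fin_cases i; exacts [hp, hq, hr])
      (fun i => by fin_cases i; exacts [hp, hq, hy.2.2])
    exact ⟨g, ⟨⟨⟨hg, hgd⟩, he 0⟩, he 1⟩, he 2⟩
  · intro g hg
    obtain ⟨⟨-, hgd⟩, hgp⟩ := hg
    rw [Finset.mem_erase]
    exact ⟨fun e => hpq (g.injective (hgp.trans e.symm)), hmem hgd hq⟩
  · intro y hy
    rw [Finset.mem_erase] at hy
    obtain ⟨g, hg, hgd, he⟩ := exists_dodecad_move (k := 3) (by norm_num) hd
      (emb3 hpq hpr hqr) (emb3 (Ne.symm hy.1)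
        (z := if y = r then q else r) (by split_ifs; exacts [hpq, hpr])
        (by split_ifs with h; exacts [h ▸ hqr.symm, h]))
      (fun i => by fin_cases i; exacts [hp, hq, hr])
      (fun i => by
        fin_cases i
        · exact hp
        · exact hy.2
        · show (if y = r then q else r) ∈ d
          split_ifs; exacts [hq, hr])
    exact ⟨g, ⟨⟨hg, hgd⟩, he 0⟩, he 1⟩

theorem transitive_off_dodecad {d : Finset GolayPt} (hd : d ∈ dodecads) {p q r : GolayPt}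
    (hp : p ∈ d) (hq : q ∈ d) (hr : r ∈ d) (hpq : p ≠ q) (hpr : p ≠ r) (hqr : q ≠ r)
    {x y : GolayPt} (hx : x ∉ d) (hy : y ∉ d) :
    ∃ g ∈ M24, g • d = d ∧ g p = p ∧ g q = q ∧ g r = r ∧ g x = y := by
  obtain ⟨g, hg, hgd, hf, e⟩ := exists_fix_triple (compl_mem_dodecads hd) (emb3 hpq hpr hqr)
    (fun i => by fin_cases i <;> simp only [Finset.mem_compl, not_not]; exacts [hp, hq, hr])
    (Finset.mem_compl.mpr hx) (Finset.mem_compl.mpr hy)
  refine ⟨g, hg, ?_, hf 0, hf 1, hf 2, e⟩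
  ext z
  have := apply_mem_octad_iff hgd (g⁻¹ z)
  rw [Equiv.Perm.coe_inv, Equiv.apply_symm_apply, Finset.mem_compl, Finset.mem_compl,
    not_iff_not] at this
  rw [← Finset.inv_smul_mem_iff, Equiv.Perm.smul_def, Equiv.Perm.coe_inv]
  exact this.symm

end Cfsg.Agent.Golay
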