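import Cfsg.Agent.Golay.DodecadTriple
import Cfsg.Agent.Golay.MathieuSimple
import Cfsg.Agent.Golay.IndexM23
import Cfsg.Agent.SmallPSL.Small

/-!
The stabilisers of a point and of a pair in the action of degree twelve of the smallest Mathieu
group: `PSL(2,11)` and the symmetric group of degree five.
-/

set_option autoImplicit false

namespace Cfsg.Agent.Golay

open Cfsg
open scoped Pointwise

/-- Three stabilisers in a subgroup as an intersection. -/
def stabilizerInfEquiv₃ {G β γ δ : Type*} [Group G] [MulAction G β] [MulAction G γ] [MulAction G δ]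
    (H : Subgroup G) (b : β) (c : γ) (e : δ) :
    ↥(MulAction.stabilizer H b ⊓ MulAction.stabilizer H c ⊓ MulAction.stabilizer H e) ≃*
      ↥(H ⊓ MulAction.stabilizer G b ⊓ MulAction.stabilizer G c ⊓ MulAction.stabilizer G e) where
  toFun x := ⟨((x : H) : G), ⟨⟨(x : H).2, x.2.1.1⟩, x.2.1.2⟩, x.2.2⟩
  invFun x := ⟨⟨x.1, x.2.1.1.1⟩, ⟨x.2.1.1.2, x.2.1.2⟩, x.2.2⟩
  left_inv _ := rfl
  right_inv _ := rfl
  map_mul' _ _ := rfl

/-- Conjugation by an element of `M24` between meets of three stabilisers. -/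
noncomputable def conjInfEquiv₃ {g : Equiv.Perm GolayPt} (hg : g ∈ M24)
    {β γ δ : Type*} [MulAction (Equiv.Perm GolayPt) β] [MulAction (Equiv.Perm GolayPt) γ]
    [MulAction (Equiv.Perm GolayPt) δ] (b : β) (c : γ) (e : δ) :
    ↥(M24 ⊓ MulAction.stabilizer (Equiv.Perm GolayPt) b ⊓
        MulAction.stabilizer (Equiv.Perm GolayPt) c ⊓ MulAction.stabilizer (Equiv.Perm GolayPt) e) ≃*
      ↥(M24 ⊓ MulAction.stabilizer (Equiv.Perm GolayPt) (g • b) ⊓
        MulAction.stabilizer (Equiv.Perm GolayPt) (g • c) ⊓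
        MulAction.stabilizer (Equiv.Perm GolayPt) (g • e)) :=
  ((M24 ⊓ MulAction.stabilizer (Equiv.Perm GolayPt) b ⊓
      MulAction.stabilizer (Equiv.Perm GolayPt) c ⊓
      MulAction.stabilizer (Equiv.Perm GolayPt) e).equivMapOfInjective
    (MulAut.conj g).toMonoidHom (MulAut.conj g).injective).trans
  (MulEquiv.subgroupCongr (by
    rw [Subgroup.map_inf _ _ _ (MulAut.conj g).injective,
      Subgroup.map_inf _ _ _ (MulAut.conj g).injective,
      Subgroup.map_inf _ _ _ (MulAut.conj g).injective, M24_map_conj hg]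
    congr 1
    · congr 1
      · congr 1
        exact (MulAction.stabilizer_smul_eq_stabilizer_map_conj g b).symm
      · exact (MulAction.stabilizer_smul_eq_stabilizer_map_conj g c).symm
    · exact (MulAction.stabilizer_smul_eq_stabilizer_map_conj g e).symm))

/-- Two-fold transitivity of the stabiliser of a dodecad and one of its points on the
complement. -/
theorem exists_move_pair_off {d : Finset GolayPt} (hd : d ∈ dodecads) {p : GolayPt} (hp : p ∈ d)
    {a b c e : GolayPt} (ha : a ∉ d) (hb : b ∉ d) (hc : c ∉ d) (he : e ∉ d) (hab : a ≠ b)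
    (hce : c ≠ e) : ∃ g ∈ M24, g • d = d ∧ g p = p ∧ g a = c ∧ g b = e := by
  have h12 : dᶜ.card = 12 := (mem_dodecads_iff.mp (compl_mem_dodecads hd)).2
  have third : ∀ {u v : GolayPt}, ∃ w, w ∉ d ∧ u ≠ w ∧ v ≠ w := by
    intro u v
    obtain ⟨w, hw, hwn⟩ := Finset.exists_mem_notMem_of_card_lt_card
      (s := ({u, v} : Finset GolayPt)) (t := dᶜ) (lt_of_le_of_lt Finset.card_le_two (by omega))
    rw [Finset.mem_insert, Finset.mem_singleton, not_or] at hwn
    exact ⟨w, Finset.mem_compl.mp hw, Ne.symm hwn.1, Ne.symm hwn.2⟩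
  obtain ⟨x, hx, hax, hbx⟩ := third (u := a) (v := b)
  obtain ⟨y, hy, hcy, hey⟩ := third (u := c) (v := e)
  obtain ⟨g, hg, hgd, hgp, hgi⟩ := exists_move_triple hd hp (emb3 hab hax hbx) (emb3 hce hcy hey)
    (fun i => by fin_cases i; exacts [ha, hb, hx]) (fun i => by fin_cases i; exacts [hc, he, hy])
  exact ⟨g, hg, hgd, hgp, hgi 0, hgi 1⟩

theorem mem_M11_apply {m : Equiv.Perm GolayPt} (hm : m ∈ Spor.M11) (x : GolayPt) :
    m x ∈ Spor.squareDodecad ↔ x ∈ Spor.squareDodecad :=
  apply_mem_octad_iff (mem_M11_iff.mp hm).2.1 x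

/-! ### A point -/

/-- The stabiliser of the extra point in M11. -/
def M11Point : Subgroup (Equiv.Perm GolayPt) :=
  Spor.M11 ⊓ MulAction.stabilizer (Equiv.Perm GolayPt) (none : GolayPt)

theorem card_M11Point : Nat.card M11Point = 660 := by
  have h := card_eq_orbit_mul Spor.M11 none Spor.squareDodecadᶜ
    (fun m hm => Finset.mem_compl.mpr fun h => none_notMem_squareDodecad
      ((mem_M11_apply hm _).mp h))
    (fun y hy => by
      have hy' := Finset.mem_compl.mp hy
      obtain ⟨b, hb, hbn⟩ := Finset.exists_mem_notMem_of_card_lt_card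
        (s := ({none} : Finset GolayPt)) (t := Spor.squareDodecadᶜ) (by
          rw [(mem_dodecads_iff.mp (compl_mem_dodecads squareDodecad_mem')).2]; simp)
      obtain ⟨c, hc, hcn⟩ := Finset.exists_mem_notMem_of_card_lt_card
        (s := ({y} : Finset GolayPt)) (t := Spor.squareDodecadᶜ) (by
          rw [(mem_dodecads_iff.mp (compl_mem_dodecads squareDodecad_mem')).2]; simp)
      obtain ⟨g, hg, hgd, hg0, hgy, -⟩ := exists_move_pair_off squareDodecad_mem'
        zero_mem_squareDodecad none_notMem_squareDodecad (Finset.mem_compl.mp hb) hy'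
        (Finset.mem_compl.mp hc) (fun e => hbn (Finset.mem_singleton.mpr e.symm))
        (fun e => hcn (Finset.mem_singleton.mpr e.symm))
      exact ⟨g, mem_M11_iff.mpr ⟨hg, hgd, hg0⟩, hgy⟩)
  rw [card_M11, (mem_dodecads_iff.mp (compl_mem_dodecads squareDodecad_mem')).2] at h
  rw [show Nat.card M11Point = Nat.card ↥(Spor.M11 ⊓
    MulAction.stabilizer (Equiv.Perm GolayPt) (none : GolayPt)) from rfl]
  omega

theorem isSimpleGroup_M11Point : IsSimpleGroup M11Point := by
  have : Fact (Nat.Prime 11) := ⟨by norm_num⟩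
  let g : M11Point := ⟨doublePerm,
    mem_M11_iff.mpr ⟨doublePerm_mem, doublePerm_dodecad, doublePerm_fix.2⟩, doublePerm_fix.1⟩
  have hg : orderOf g = 11 := (Subgroup.orderOf_mk _ _).trans orderOf_doublePerm
  have hp2 : ¬11 ^ 2 ∣ Nat.card M11Point := by rw [card_M11Point]; norm_num
  obtain ⟨P, hP⟩ := exists_sylow_zpowers g hg hp2
  have hinv : ∀ m ∈ M11Point, ∀ x ∈ sqPts, m x ∈ sqPts := by
    intro m hm x hx
    rw [mem_sqPts] at hx ⊢
    exact ⟨fun e => hx.1 (m.injective (e.trans (mem_M11_iff.mp hm.1).2.2.symm)),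
      (mem_M11_apply hm.1 x).mpr hx.2⟩
  have hle := card_normalizer_double_le g rfl (fun m hm => (mem_M11_iff.mp hm.1).1)
    (fun m hm => (mem_M11_iff.mp hm.1).2.2) (fun n _ => hinv _ n.2 _ one_mem_sqPts)
  rw [← hP] at hle
  have hN := card_normalizer_sylow card_M11Point P (by rw [hP, Nat.card_zpowers, hg])
    (m₀ := 5) hle (by decide +kernel)
  refine isSimpleGroup_of_sylow_prime (q := 5) (by norm_num) hp2 P hN
    (fun N hN' hb => ?_) (by rw [card_M11Point]; norm_num)
  have hfs := invSub_faithful hinv (fun m hm h =>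
    eq_one_of_fix_sqPts (mem_M11_iff.mp hm.1).1 (mem_M11_iff.mp hm.1).2.2 h)
  have hmove : ∀ x : invSub hinv, ∃ m : M11Point, m • (⟨some 1, one_mem_sqPts⟩ : invSub hinv) = x := by
    intro x
    obtain ⟨i, -, e⟩ := sqPts_orbit x.1 x.2
    exact ⟨g ^ i, Subtype.ext ((congrArg (fun z : Equiv.Perm GolayPt => z (some 1))
      (Subgroup.coe_pow _ g i)).trans e)⟩
  have : MulAction.IsPretransitive M11Point (invSub hinv) := ⟨fun x y => by
    obtain ⟨a, ha⟩ := hmove x
    obtain ⟨b, hb⟩ := hmove y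
    exact ⟨b * a⁻¹, by rw [mul_smul, inv_smul_eq_iff.mpr ha.symm, hb]⟩⟩
  have : MulAction.IsPreprimitive M11Point (invSub hinv) :=
    MulAction.IsPreprimitive.of_prime_card (by rw [invSub_card, sqPts_card]; norm_num)
  have : Nonempty (invSub hinv) := ⟨⟨some 1, one_mem_sqPts⟩⟩
  refine dvd_trans (dvd_of_eq ?_) (dvd_card_of_normal_ne_bot (α := invSub hinv) hb)
  rw [invSub_card, sqPts_card]

theorem equiv_PSL_two_eleven {d : Finset GolayPt} (hd : d ∈ dodecads) {p q : GolayPt} (hp : p ∈ d)
    (hq : q ∉ d) :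
    Nonempty (↥(MulAction.stabilizer M24 d ⊓ MulAction.stabilizer M24 p ⊓
      MulAction.stabilizer M24 q) ≃* Matrix.ProjectiveSpecialLinearGroup (Fin 2) (ZMod 11)) := by
  have : Fact (Nat.Prime 11) := ⟨by norm_num⟩
  have := isSimpleGroup_M11Point
  obtain ⟨ψ⟩ := SmallPSL.equiv_eleven card_M11Point (ZMod.card 11)
  obtain ⟨a, ha, e1, e2⟩ := exists_move_dodecad_point hd hp
  have han : a none ∉ d := fun h => none_notMem_squareDodecad ((apply_mem_octad_iff e1 _).mp h)
  have hc := (mem_dodecads_iff.mp (compl_mem_dodecads hd)).2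
  obtain ⟨u, hu, hun⟩ := Finset.exists_mem_notMem_of_card_lt_card
    (s := ({a none} : Finset GolayPt)) (t := dᶜ) (by simp [hc])
  obtain ⟨v, hv, hvn⟩ := Finset.exists_mem_notMem_of_card_lt_card
    (s := ({q} : Finset GolayPt)) (t := dᶜ) (by simp [hc])
  obtain ⟨b, hb, hbd, hbp, hbq, -⟩ := exists_move_pair_off hd hp han (Finset.mem_compl.mp hu) hq
    (Finset.mem_compl.mp hv) (fun e => hun (Finset.mem_singleton.mpr e.symm))
    (fun e => hvn (Finset.mem_singleton.mpr e.symm))
  have hg1 : (b * a) • Spor.squareDodecad = d := by rw [mul_smul, e1, hbd]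
  have hg2 : (b * a) • (some 0 : GolayPt) = p := by
    rw [Equiv.Perm.smul_def, Equiv.Perm.mul_apply, e2, hbp]
  have hg3 : (b * a) • (none : GolayPt) = q := hbq
  have e := (conjInfEquiv₃ (mul_mem hb ha) Spor.squareDodecad (some 0 : GolayPt)
    (none : GolayPt)).trans (stabilizerInfEquiv₃ M24 _ _ _).symm
  rw [hg1, hg2, hg3] at e
  exact ⟨e.symm.trans ψ⟩

/-! ### A pair -/

/-- The five points of the hexad of the pair `{none, some 5}` through `some 0`, other than it. -/
def pentPts : Finset GolayPt := {some 3, some 4, some 12, some 13, some 18}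

theorem pentPts_iff : ∀ x, x ∈ pentPts ↔
    x ∈ bitSet (enc 57) ∧ x ∈ Spor.squareDodecad ∧ x ≠ some 0 := by
  decide +kernel

theorem pentPts_card : pentPts.card = 5 := by decide +kernel

theorem pentPts_subset : pentPts ⊆ Spor.squareDodecad := fun x hx => ((pentPts_iff x).mp hx).2.1

theorem squareDodecad_bits : Spor.squareDodecad = bitSet 340831 := by decide +kernel

theorem hexad57_facts : pop24 (enc 57) = 8 ∧ (none : GolayPt) ∈ bitSet (enc 57) ∧
    (some 5 : GolayPt) ∈ bitSet (enc 57) ∧ (some 0 : GolayPt) ∈ bitSet (enc 57) ∧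
    (bitSet (enc 57) ∩ Spor.squareDodecad).card = 6 := by
  decide +kernel

theorem hexad57_check : check4096 (fun k => !(Nat.beq (pop24 (enc k)) 8 && (enc k).testBit 23 &&
    (enc k).testBit 5 && (enc k).testBit 0 && Nat.beq (pop24 (enc k &&& 340831)) 6) ||
      Nat.beq k 57) = true := by
  decide +kernel

theorem eq_hexad57 {o : Finset GolayPt} (ho : o ∈ octads) (hn : none ∈ o) (h5 : some 5 ∈ o)
    (h0 : some 0 ∈ o) (h6 : (o ∩ Spor.squareDodecad).card = 6) : o = bitSet (enc 57) := by
  rw [mem_octads_iff] at ho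
  obtain ⟨k, hk, e⟩ := (mem_golayCode_iff _).mp ho.1
  have hs : o = bitSet (enc k) := by rw [bitSet_eq, ← e, support₂_indWord]
  subst hs
  have h := of_check4096 hexad57_check hk
  have hi : bitSet (enc k) ∩ bitSet 340831 = bitSet (enc k &&& 340831) := by
    ext p; simp [bitSet]
  rw [squareDodecad_bits, hi, card_bitSet] at h6
  simp only [bitSet, Finset.mem_filter, Finset.mem_univ, true_and] at hn h5 h0
  rw [card_bitSet] at ho
  have hn' : (enc k).testBit 23 = true := hn
  have h5' : (enc k).testBit 5 = true := h5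
  have h0' : (enc k).testBit 0 = true := h0
  rw [ho.2, hn', h5', h0', h6] at h
  simp at h
  rw [h]

/-- The stabiliser of `{none, some 5}` in M11. -/
def M11Pair : Subgroup (Equiv.Perm GolayPt) :=
  Spor.M11 ⊓ MulAction.stabilizer (Equiv.Perm GolayPt) ({none, some 5} : Finset GolayPt)

theorem five_notMem : (some 5 : GolayPt) ∉ Spor.squareDodecad := out_points.1

theorem card_M11Pair : Nat.card M11Pair = 120 := by
  let e : MulAction.stabilizer Spor.M11 ({none, some 5} : Finset GolayPt) ≃* M11Pair :=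
    stabilizerInfEquiv Spor.M11 _
  rw [← Nat.card_congr e.toEquiv]
  have horb : MulAction.orbit Spor.M11 ({none, some 5} : Finset GolayPt) =
      ↑(Finset.powersetCard 2 Spor.squareDodecadᶜ) := by
    ext t
    rw [Finset.mem_coe, Finset.mem_powersetCard]
    constructor
    · rintro ⟨g, rfl⟩
      refine ⟨fun x hx => ?_, ?_⟩
      · obtain ⟨y, hy, rfl⟩ := Finset.mem_smul_finset.mp hx
        refine Finset.mem_compl.mpr fun h => ?_
        have := (mem_M11_apply g.2 y).mp h
        rcases Finset.mem_insert.mp hy with rfl | hy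
        · exact none_notMem_squareDodecad this
        · rw [Finset.mem_singleton] at hy
          exact five_notMem (hy ▸ this)
      · exact (Finset.card_smul_finset (g : Equiv.Perm GolayPt) _).trans
          (Finset.card_pair (by decide))
    · rintro ⟨hsub, htc⟩
      obtain ⟨c, d, hcd, rfl⟩ := Finset.card_eq_two.mp htc
      simp only [Finset.insert_subset_iff, Finset.singleton_subset_iff, Finset.mem_compl] at hsub
      obtain ⟨g, hg, hgd, hg0, h1, h2⟩ := exists_move_pair_off squareDodecad_mem'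
        zero_mem_squareDodecad none_notMem_squareDodecad five_notMem hsub.1 hsub.2
        (by decide) hcd
      refine ⟨⟨g, mem_M11_iff.mpr ⟨hg, hgd, hg0⟩⟩, ?_⟩
      show g • ({none, some 5} : Finset GolayPt) = {c, d}
      rw [Finset.smul_finset_insert, Finset.smul_finset_singleton, Equiv.Perm.smul_def,
        Equiv.Perm.smul_def, h1, h2]
  have := Subgroup.index_mul_card
    (MulAction.stabilizer Spor.M11 ({none, some 5} : Finset GolayPt))
  rw [MulAction.index_stabilizer, horb, Set.ncard_coe_finset, Finset.card_powersetCard, card_M11,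
    (mem_dodecads_iff.mp (compl_mem_dodecads squareDodecad_mem')).2] at this
  rw [show Nat.choose 12 2 = 66 from rfl] at this
  omega

theorem M11Pair_invariant : ∀ m ∈ M11Pair, ∀ x ∈ pentPts, m x ∈ pentPts := by
  intro m hm x hx
  obtain ⟨hmm, hmd, hm0⟩ := mem_M11_iff.mp hm.1
  have hpair : m • ({none, some 5} : Finset GolayPt) = {none, some 5} := hm.2
  obtain ⟨h8, hn, h5, h0, h6⟩ := hexad57_facts
  have ho : bitSet (enc 57) ∈ octads :=
    mem_octads_iff.mpr ⟨bitSet_enc_mem 57, by rw [card_bitSet, h8]⟩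
  have hp : ∀ y ∈ ({none, some 5} : Finset GolayPt), y ∈ m • bitSet (enc 57) := by
    intro y hy
    rw [← hpair] at hy
    refine Finset.smul_finset_subset_smul_finset ?_ hy
    simp [Finset.insert_subset_iff, hn, h5]
  have heq : m • bitSet (enc 57) = bitSet (enc 57) := by
    refine eq_hexad57 (smul_mem_octads hmm ho) (hp _ (by simp)) (hp _ (by simp)) ?_ ?_
    · exact Finset.mem_smul_finset.mpr ⟨_, h0, hm0⟩
    · conv_lhs => rw [← hmd, ← Finset.smul_finset_inter, Finset.card_smul_finset]
      exact h6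
  rw [pentPts_iff] at hx ⊢
  exact ⟨(apply_mem_octad_iff heq x).mpr hx.1, (mem_M11_apply hm.1 x).mpr hx.2.1,
    fun e => hx.2.2 (m.injective (e.trans hm0.symm))⟩

theorem equiv_perm_five {d : Finset GolayPt} (hd : d ∈ dodecads) {p q q' : GolayPt} (hp : p ∈ d)
    (hq : q ∉ d) (hq' : q' ∉ d) (hne : q ≠ q') :
    Nonempty (↥(MulAction.stabilizer M24 d ⊓ MulAction.stabilizer M24 p ⊓
      MulAction.stabilizer M24 ({q, q'} : Finset GolayPt)) ≃* Equiv.Perm (Fin 5)) := by
  have hinj : Function.Injective (invHom M11Pair pentPts M11Pair_invariant) := by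
    rw [injective_iff_map_eq_one]
    intro m hm
    obtain ⟨hmm, hmd, -⟩ := mem_M11_iff.mp m.2.1
    exact Subtype.ext (eq_one_of_fix_five squareDodecad_mem' hmm hmd (F := pentPts) pentPts_subset
      (by rw [pentPts_card]) fun x hx => congrArg Subtype.val (Equiv.ext_iff.mp hm ⟨x, hx⟩))
  have hbij : Function.Bijective (invHom M11Pair pentPts M11Pair_invariant) :=
    (Nat.bijective_iff_injective_and_card _).mpr ⟨hinj, by
      rw [card_M11Pair, Nat.card_perm, Nat.card_eq_finsetCard, pentPts_card]; rfl⟩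
  let ψ : M11Pair ≃* Equiv.Perm (Fin 5) :=
    (MulEquiv.ofBijective _ hbij).trans (Finset.equivFinOfCardEq pentPts_card).permCongrHom
  obtain ⟨a, ha, e1, e2⟩ := exists_move_dodecad_point hd hp
  have hout : ∀ x ∉ Spor.squareDodecad, a x ∉ d := fun x hx h =>
    hx ((apply_mem_octad_iff e1 _).mp h)
  obtain ⟨b, hb, hbd, hbp, hbq, hbq'⟩ := exists_move_pair_off hd hp
    (hout _ none_notMem_squareDodecad) (hout _ five_notMem) hq hq'
    (fun e => absurd (a.injective e) (by decide)) hne
  have hg1 : (b * a) • Spor.squareDodecad = d := by rw [mul_smul, e1, hbd]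
  have hg2 : (b * a) • (some 0 : GolayPt) = p := by
    rw [Equiv.Perm.smul_def, Equiv.Perm.mul_apply, e2, hbp]
  have hg3 : (b * a) • ({none, some 5} : Finset GolayPt) = {q, q'} := by
    rw [Finset.smul_finset_insert, Finset.smul_finset_singleton, Equiv.Perm.smul_def,
      Equiv.Perm.smul_def, Equiv.Perm.mul_apply, Equiv.Perm.mul_apply, hbq, hbq']
  have e := (conjInfEquiv₃ (mul_mem hb ha) Spor.squareDodecad (some 0 : GolayPt)
    ({none, some 5} : Finset GolayPt)).trans (stabilizerInfEquiv₃ M24 _ _ _).symm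
  rw [hg1, hg2, hg3] at e
  exact ⟨e.symm.trans ψ⟩

end Cfsg.Agent.Golay
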